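import Mathlib
import Cfsg.Agent.SpGeom.Basic
import Cfsg.Agent.Symp.Basic
import Cfsg.Agent.Forms.Basic
import Cfsg.Prelude.Def_Classical
set_option autoImplicit false

/-!
Involution classes of the projective symplectic group in odd characteristic: at most `m / 2 + 1` of them.
-/

namespace CfsgLib.InvClass

open Matrix CfsgLib.SpGeom

variable {F : Type*} [Field F] {m : ℕ}

local notation "V" => (Fin m ⊕ Fin m → F)
local notation "Sp" => Matrix.symplecticGroup (Fin m) F
local notation "f" => Cfsg.sympForm m F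
local notation "mat" A:max => ((A : Sp) : Matrix (Fin m ⊕ Fin m) (Fin m ⊕ Fin m) F)

/-- Hyperbolic pairs. -/
structure Frame {k : ℕ} (u w : Fin k → V) : Prop where
  uu : ∀ i j, f (u i) (u j) = 0
  ww : ∀ i j, f (w i) (w j) = 0
  uw : ∀ i j, f (u i) (w j) = if i = j then 1 else 0

theorem frame_nil : Frame (Fin.elim0 : Fin 0 → V) Fin.elim0 :=
  ⟨fun i => i.elim0, fun i => i.elim0, fun i => i.elim0⟩

/-- Orthogonal to all the pairs. -/
def InComp {k : ℕ} (u w : Fin k → V) (x : V) : Prop := ∀ i, f x (u i) = 0 ∧ f x (w i) = 0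

theorem Frame.snoc {k : ℕ} {u w : Fin k → V} (h : Frame u w) {x y : V} (hx : InComp u w x) (hy : InComp u w y)
    (hxy : f x y = 1) : Frame (Fin.snoc u x) (Fin.snoc w y) := by
  have hux : ∀ i, f (u i) x = 0 := fun i => by rw [form_skew, (hx i).1, neg_zero]
  have huy : ∀ i, f (u i) y = 0 := fun i => by rw [form_skew, (hy i).1, neg_zero]
  have hwy : ∀ i, f (w i) y = 0 := fun i => by rw [form_skew, (hy i).2, neg_zero]
  constructor <;> intro i j <;> induction i using Fin.lastCases <;> induction j using Fin.lastCases <;>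
    simp [h.uu, h.ww, h.uw, form_self, hux, huy, hwy, (hx _).1, (hx _).2, (hy _).1, (hy _).2, hxy,
      Fin.castSucc_ne_last, fun i => (Fin.castSucc_ne_last (n := k) i).symm]

theorem exists_inComp {k : ℕ} (u w : Fin k → V) (hk : k < m) : ∃ x : V, x ≠ 0 ∧ InComp u w x := by
  let L : V →ₗ[F] (Fin k ⊕ Fin k → F) :=
    { toFun := fun x i => f x (Sum.elim u w i)
      map_add' := fun x y => funext fun i => form_add_left x y _
      map_smul' := fun c x => funext fun i => form_smul_left c x _ }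
  have hne : LinearMap.ker L ≠ ⊥ := LinearMap.ker_ne_bot_of_finrank_lt (by
    rw [Module.finrank_fintype_fun_eq_card, Module.finrank_fintype_fun_eq_card, Fintype.card_sum, Fintype.card_sum,
      Fintype.card_fin, Fintype.card_fin]
    omega)
  obtain ⟨x, hx, hx0⟩ := Submodule.exists_mem_ne_zero_of_ne_bot hne
  exact ⟨x, hx0, fun i => ⟨congrFun hx (Sum.inl i), congrFun hx (Sum.inr i)⟩⟩

theorem form_sum_left {ι : Type*} (t : Finset ι) (a : ι → V) (v : V) : f (∑ i ∈ t, a i) v = ∑ i ∈ t, f (a i) v :=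
  sum_dotProduct _ _ _

theorem Frame.exists_partner {k : ℕ} {u w : Fin k → V} (h : Frame u w) {x : V} (hx : InComp u w x) (hx0 : x ≠ 0) :
    ∃ y : V, InComp u w y ∧ f x y = 1 := by
  obtain ⟨z, hz⟩ := exists_form_ne_zero hx0
  obtain ⟨y₀, hy₀⟩ : ∃ y, f x y = 1 := ⟨(f x z)⁻¹ • z, by rw [form_smul_right, inv_mul_cancel₀ hz]⟩
  refine ⟨y₀ - ∑ i, (f y₀ (w i) • u i - f y₀ (u i) • w i), fun j => ⟨?_, ?_⟩, ?_⟩
  · rw [form_sub_left, form_sum_left, Finset.sum_eq_single j]
    · change f y₀ (u j) - f (f y₀ (w j) • u j - f y₀ (u j) • w j) (u j) = 0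
      rw [form_sub_left, form_smul_left, form_smul_left, h.uu, form_skew (u j) (w j), h.uw, if_pos rfl]
      ring
    · intro i _ hij
      change f (f y₀ (w i) • u i - f y₀ (u i) • w i) (u j) = 0
      rw [form_sub_left, form_smul_left, form_smul_left, h.uu, form_skew (u j) (w i), h.uw, if_neg (Ne.symm hij)]
      ring
    · simp
  · rw [form_sub_left, form_sum_left, Finset.sum_eq_single j]
    · change f y₀ (w j) - f (f y₀ (w j) • u j - f y₀ (u j) • w j) (w j) = 0
      rw [form_sub_left, form_smul_left, form_smul_left, h.ww, h.uw, if_pos rfl]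
      ring
    · intro i _ hij
      change f (f y₀ (w i) • u i - f y₀ (u i) • w i) (w j) = 0
      rw [form_sub_left, form_smul_left, form_smul_left, h.ww, h.uw, if_neg hij]
      ring
    · simp
  · rw [form_skew, form_sub_left, form_sum_left, Finset.sum_eq_zero]
    · change -(f y₀ x - 0) = 1
      rw [sub_zero, ← form_skew, hy₀]
    · intro i _
      change f (f y₀ (w i) • u i - f y₀ (u i) • w i) x = 0
      rw [form_sub_left, form_smul_left, form_smul_left, form_skew x (u i), form_skew x (w i), (hx i).1, (hx i).2]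
      ring

theorem gg_apply {g : Sp} {z : F} (hg : mat g * mat g = z • 1) (v : V) : mat g *ᵥ (mat g *ᵥ v) = z • v := by
  rw [mulVec_mulVec, hg, smul_mulVec, one_mulVec]

/-- An involution of the symplectic group is diagonal in some frame. -/
theorem exists_sign_frame (h2 : (2 : F) ≠ 0) {g : Sp} (hg : mat g * mat g = 1) :
    ∀ k ≤ m, ∃ (u w : Fin k → V) (s : Fin k → F), Frame u w ∧ ∀ i, (s i = 1 ∨ s i = -1) ∧
      mat g *ᵥ u i = s i • u i ∧ mat g *ᵥ w i = s i • w i := by
  have hgg : ∀ v, mat g *ᵥ (mat g *ᵥ v) = v := fun v => by rw [mulVec_mulVec, hg, one_mulVec]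
  intro k hk
  induction k with
  | zero => exact ⟨Fin.elim0, Fin.elim0, Fin.elim0, frame_nil, fun i => i.elim0⟩
  | succ k ih =>
    obtain ⟨u, w, s, hf, hs⟩ := ih (by omega)
    have hs2 : ∀ i, s i * s i = 1 := fun i => by rcases (hs i).1 with e | e <;> rw [e] <;> ring
    have hinv : ∀ x, InComp u w x → InComp u w (mat g *ᵥ x) := by
      intro x hx i
      have e1 := form_mulVec g x (u i)
      have e2 := form_mulVec g x (w i)
      rw [(hs i).2.1, form_smul_right, (hx i).1] at e1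
      rw [(hs i).2.2, form_smul_right, (hx i).2] at e2
      have h0 : s i ≠ 0 := fun h => by have := hs2 i; rw [h, zero_mul] at this; exact zero_ne_one this
      exact ⟨(mul_eq_zero.mp e1).resolve_left h0, (mul_eq_zero.mp e2).resolve_left h0⟩
    obtain ⟨x, hx0, hx⟩ := exists_inComp u w (by omega)
    obtain ⟨a, σ, hσ, ha0, ha, hga⟩ : ∃ (a : V) (σ : F), (σ = 1 ∨ σ = -1) ∧ a ≠ 0 ∧ InComp u w a ∧
        mat g *ᵥ a = σ • a := by
      by_cases he : x + mat g *ᵥ x = 0
      · refine ⟨x, -1, Or.inr rfl, hx0, hx, ?_⟩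
        rw [neg_one_smul, eq_neg_iff_add_eq_zero, add_comm]
        exact he
      · refine ⟨x + mat g *ᵥ x, 1, Or.inl rfl, he, fun i => ?_, ?_⟩
        · rw [form_add_left, form_add_left, (hx i).1, (hx i).2, (hinv x hx i).1, (hinv x hx i).2]
          simp
        · rw [mulVec_add, hgg, one_smul, add_comm]
    have hσ2 : σ * σ = 1 := by rcases hσ with e | e <;> rw [e] <;> ring
    obtain ⟨y, hy, hay⟩ := hf.exists_partner ha ha0
    set b := (2 : F)⁻¹ • (y + σ • (mat g *ᵥ y))
    have hgb : mat g *ᵥ b = σ • b := by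
      simp only [b, mulVec_smul, mulVec_add, hgg]
      rw [smul_comm σ, smul_add σ, smul_smul σ σ, hσ2, one_smul, add_comm]
    have hb : InComp u w b := fun i => by
      simp only [b, form_smul_left, form_add_left, (hy i).1, (hy i).2, (hinv y hy i).1, (hinv y hy i).2]
      simp
    have hab : f a b = 1 := by
      have e := form_mulVec g a y
      rw [hga, form_smul_left] at e
      simp only [b, form_smul_right, form_add_right, e, hay]
      field_simp
      norm_num
    refine ⟨Fin.snoc u a, Fin.snoc w b, Fin.snoc s σ, hf.snoc ha hb hab, fun i => ?_⟩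
    induction i using Fin.lastCases with
    | last => simp [hσ, hga, hgb]
    | cast i => simpa using hs i

/-- An element squaring to `-1` has a standard frame. -/
theorem exists_rot_frame [Finite F] (h2 : (2 : F) ≠ 0) {g : Sp} (hg : mat g * mat g = -1) :
    ∀ k ≤ m, ∃ (u w : Fin k → V), Frame u w ∧ ∀ i, mat g *ᵥ u i = w i ∧ mat g *ᵥ w i = -u i := by
  have hgg : ∀ v, mat g *ᵥ (mat g *ᵥ v) = -v := fun v => by rw [mulVec_mulVec, hg, neg_mulVec, one_mulVec]
  intro k hk
  induction k with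
  | zero => exact ⟨Fin.elim0, Fin.elim0, frame_nil, fun i => i.elim0⟩
  | succ k ih =>
    obtain ⟨u, w, hf, hs⟩ := ih (by omega)
    have hneg : ∀ x y : V, f x (-y) = -f x y := fun x y => by
      rw [← neg_one_smul F y, form_smul_right, neg_one_mul]
    have hneg' : ∀ x y : V, f (-x) y = -f x y := fun x y => by
      rw [← neg_one_smul F x, form_smul_left, neg_one_mul]
    have hinv : ∀ x, InComp u w x → InComp u w (mat g *ᵥ x) := by
      intro x hx i
      have e1 := form_mulVec g x (w i)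
      have e2 := form_mulVec g x (u i)
      rw [(hs i).2, hneg, (hx i).2, neg_eq_zero] at e1
      rw [(hs i).1, (hx i).1] at e2
      exact ⟨e1, e2⟩
    obtain ⟨x, hx0, hx⟩ := exists_inComp u w (by omega)
    obtain ⟨v, hv, hv0⟩ : ∃ v, InComp u w v ∧ f v (mat g *ᵥ v) ≠ 0 := by
      by_contra hall
      push Not at hall
      obtain ⟨y, hy, hxy⟩ := hf.exists_partner hx hx0
      set y' := mat g *ᵥ (-y)
      have hy' : InComp u w y' := hinv _ fun i => by simp [hneg', (hy i).1, (hy i).2]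
      have hgy : mat g *ᵥ y' = y := by simp only [y', hgg, neg_neg]
      have h := hall (x + y') fun i => by simp [form_add_left, (hx i).1, (hx i).2, (hy' i).1, (hy' i).2]
      rw [mulVec_add, form_add_left, form_add_right, form_add_right, hall x hx, hall y' hy', hgy, hxy] at h
      have e := form_mulVec g y' (mat g *ᵥ x)
      rw [hgy, hgg, hneg, ← form_skew, hxy] at e
      rw [← e] at h
      exact h2 (by linear_combination h)
    obtain ⟨α, β, hαβ⟩ := CfsgLib.Forms.exists_two_squares hv0 hv0 (1 : F)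
    set a := α • v + β • (mat g *ᵥ v)
    have hga : mat g *ᵥ a = α • (mat g *ᵥ v) - β • v := by
      simp only [a, mulVec_add, mulVec_smul, hgg, smul_neg, sub_eq_add_neg]
    have ha : InComp u w a := fun i => by
      simp [a, form_add_left, form_smul_left, (hv i).1, (hv i).2, (hinv v hv i).1, (hinv v hv i).2]
    have hab : f a (mat g *ᵥ a) = 1 := by
      rw [hga]
      simp only [a, form_add_left, form_sub_right, form_smul_left, form_smul_right, form_self,
        form_skew v (mat g *ᵥ v)]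
      linear_combination hαβ
    refine ⟨Fin.snoc u a, Fin.snoc w (mat g *ᵥ a), hf.snoc ha (hinv a ha) hab, fun i => ?_⟩
    induction i using Fin.lastCases with
    | last => simp [hgg]
    | cast i => simpa using hs i

theorem mem_of_cols {A : Matrix (Fin m ⊕ Fin m) (Fin m ⊕ Fin m) F}
    (h : ∀ i j, f (A *ᵥ Pi.single i 1) (A *ᵥ Pi.single j 1) = f (Pi.single i 1) (Pi.single j 1)) :
    A ∈ Matrix.symplecticGroup (Fin m) F := by
  rw [SymplecticGroup.mem_iff']
  ext i j
  have := h i j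
  unfold Cfsg.sympForm at this
  simp only [Matrix.mulVec_single_one, single_dotProduct, one_mul, Matrix.col_apply] at this
  rw [← this, Matrix.mul_assoc]
  rfl

/-- A full frame is the image of the standard one. -/
theorem Frame.exists_sp {u w : Fin m → V} (h : Frame u w) :
    ∃ P : Sp, ∀ i, mat P *ᵥ Pi.single (Sum.inl i) 1 = w i ∧ mat P *ᵥ Pi.single (Sum.inr i) 1 = u i := by
  let P₀ : Matrix (Fin m ⊕ Fin m) (Fin m ⊕ Fin m) F := Matrix.of fun r c => Sum.elim w u c r
  have hc : ∀ c, P₀ *ᵥ Pi.single c 1 = Sum.elim w u c := fun c => by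
    rw [mulVec_single_one]; rfl
  refine ⟨⟨P₀, mem_of_cols fun i j => ?_⟩, fun i => ⟨hc _, hc _⟩⟩
  rw [hc, hc]
  rcases i with i | i <;> rcases j with j | j <;>
    simp only [Sum.elim_inl, Sum.elim_inr, form_single_inl_right, form_single_inr_right, h.uu, h.ww, h.uw]
  · simp
  · rw [form_skew, h.uw]
    simp [Pi.single_apply, eq_comm]
  · simp [Pi.single_apply, eq_comm]
  · simp

theorem isConj_of_rule {g g' P P' : Sp}
    (h : ∀ c, ∃ (t : F) (c' : Fin m ⊕ Fin m), mat g *ᵥ (mat P *ᵥ Pi.single c 1) = t • (mat P *ᵥ Pi.single c' 1) ∧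
      mat g' *ᵥ (mat P' *ᵥ Pi.single c 1) = t • (mat P' *ᵥ Pi.single c' 1)) : IsConj g g' := by
  rw [isConj_iff]
  refine ⟨P' * P⁻¹, ?_⟩
  have h1 : P⁻¹ * g * P = P'⁻¹ * g' * P' := by
    refine Subtype.ext (Matrix.ext_of_mulVec_single fun c => ?_)
    obtain ⟨t, c', e, e'⟩ := h c
    rw [coe_mul', coe_mul', coe_mul', coe_mul', ← mulVec_mulVec, ← mulVec_mulVec, ← mulVec_mulVec,
      ← mulVec_mulVec, e, e', mulVec_smul, mulVec_smul, inv_mulVec, inv_mulVec]
  calc P' * P⁻¹ * g * (P' * P⁻¹)⁻¹ = P' * (P⁻¹ * g * P) * P'⁻¹ := by group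
    _ = g' := by rw [h1]; group

theorem isConj_of_rot [Finite F] (h2 : (2 : F) ≠ 0) {g g' : Sp} (hg : mat g * mat g = -1)
    (hg' : mat g' * mat g' = -1) : IsConj g g' := by
  obtain ⟨u, w, hf, hs⟩ := exists_rot_frame h2 hg m le_rfl
  obtain ⟨u', w', hf', hs'⟩ := exists_rot_frame h2 hg' m le_rfl
  obtain ⟨P, hP⟩ := hf.exists_sp
  obtain ⟨P', hP'⟩ := hf'.exists_sp
  refine isConj_of_rule (P := P) (P' := P') fun c => ?_
  rcases c with i | i
  · exact ⟨-1, Sum.inr i, by rw [(hP i).1, (hP i).2, (hs i).2, neg_one_smul],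
      by rw [(hP' i).1, (hP' i).2, (hs' i).2, neg_one_smul]⟩
  · exact ⟨1, Sum.inl i, by rw [(hP i).1, (hP i).2, (hs i).1, one_smul],
      by rw [(hP' i).1, (hP' i).2, (hs' i).1, one_smul]⟩

/-- `g` is `-1` on exactly `k` of the pairs of some frame and `1` on the others. -/
def HasType (g : Sp) (k : ℕ) : Prop :=
  ∃ (u w : Fin m → V) (S : Finset (Fin m)), Frame u w ∧ S.card = k ∧
    ∀ i, mat g *ᵥ u i = (if i ∈ S then (-1 : F) else 1) • u i ∧
      mat g *ᵥ w i = (if i ∈ S then (-1 : F) else 1) • w i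

theorem isConj_of_hasType {g g' : Sp} {k : ℕ} (hg : HasType g k) (hg' : HasType g' k) : IsConj g g' := by
  obtain ⟨u, w, S, hf, hS, hs⟩ := hg
  obtain ⟨u', w', S', hf', hS', hs'⟩ := hg'
  obtain ⟨π, hπ⟩ : ∃ π : Equiv.Perm (Fin m), ∀ i, π i ∈ S' ↔ i ∈ S := by
    let e₁ : {i // i ∈ S} ≃ {i // i ∈ S'} := Finset.equivOfCardEq (hS.trans hS'.symm)
    let e₂ : {i // i ∉ S} ≃ {i // i ∉ S'} := Fintype.equivOfCardEq (by
      rw [Fintype.card_subtype_compl, Fintype.card_subtype_compl, Fintype.card_coe, Fintype.card_coe, hS, hS'])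
    refine ⟨Equiv.subtypeCongr e₁ e₂, fun i => ?_⟩
    by_cases hi : i ∈ S
    · simp [Equiv.subtypeCongr, Equiv.sumCompl_symm_apply_of_pos, hi, (e₁ ⟨i, hi⟩).2]
    · simp [Equiv.subtypeCongr, Equiv.sumCompl_symm_apply_of_neg, hi, (e₂ ⟨i, hi⟩).2]
  have hfπ : Frame (u' ∘ π) (w' ∘ π) :=
    ⟨fun i j => hf'.uu _ _, fun i j => hf'.ww _ _, fun i j => by simp [hf'.uw]⟩
  obtain ⟨P, hP⟩ := hf.exists_sp
  obtain ⟨P', hP'⟩ := hfπ.exists_sp
  refine isConj_of_rule (P := P) (P' := P') fun c => ?_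
  rcases c with i | i
  · exact ⟨if i ∈ S then -1 else 1, Sum.inl i, by rw [(hP i).1, (hs i).2],
      by rw [(hP' i).1, Function.comp_apply, (hs' _).2, if_congr (hπ i) rfl rfl]⟩
  · exact ⟨if i ∈ S then -1 else 1, Sum.inr i, by rw [(hP i).2, (hs i).1],
      by rw [(hP' i).2, Function.comp_apply, (hs' _).1, if_congr (hπ i) rfl rfl]⟩

theorem eq_one_of_hasType_zero {g : Sp} (hg : HasType g 0) : mat g = 1 := by
  obtain ⟨u, w, S, hf, hS, hs⟩ := hg
  obtain ⟨P, hP⟩ := hf.exists_sp
  have h1 : ∀ c, mat g *ᵥ (mat P *ᵥ Pi.single c 1) = mat P *ᵥ Pi.single c 1 := by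
    have hS0 : S = ∅ := Finset.card_eq_zero.mp hS
    rintro (i | i)
    · rw [(hP i).1, (hs i).2, hS0, if_neg (Finset.notMem_empty i), one_smul]
    · rw [(hP i).2, (hs i).1, hS0, if_neg (Finset.notMem_empty i), one_smul]
  have h2 : g * P = P := Subtype.ext (Matrix.ext_of_mulVec_single fun c => by
    rw [coe_mul', ← mulVec_mulVec, h1])
  rw [mul_eq_right] at h2
  rw [h2, coe_one']

theorem exists_hasType (h2 : (2 : F) ≠ 0) {g : Sp} (hg : mat g * mat g = 1) : ∃ k ≤ m, HasType g k := by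
  classical
  obtain ⟨u, w, s, hf, hs⟩ := exists_sign_frame h2 hg m le_rfl
  refine ⟨(Finset.univ.filter fun i => s i = -1).card,
    (Finset.card_filter_le _ _).trans (by simp), u, w, Finset.univ.filter fun i => s i = -1, hf, rfl, fun i => ?_⟩
  have hne : (1 : F) ≠ -1 := fun h => h2 (by linear_combination h)
  rcases (hs i).1 with e | e <;> simp [e, hne, (hs i).2.1, (hs i).2.2]

theorem hasType_neg {g g' : Sp} (hgg' : mat g' = -mat g) {k : ℕ} (h : HasType g k) : HasType g' (m - k) := by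
  classical
  obtain ⟨u, w, S, hf, hS, hs⟩ := h
  refine ⟨u, w, Sᶜ, hf, by rw [Finset.card_compl, Fintype.card_fin, hS], fun i => ?_⟩
  rw [hgg', neg_mulVec, neg_mulVec, (hs i).1, (hs i).2]
  by_cases hi : i ∈ S <;> simp [hi]

/-- A code of an involution of `PSp`. -/
def HasCode (x : Cfsg.PSp m F) (c : ℕ) : Prop :=
  ∃ g : Sp, QuotientGroup.mk g = x ∧ ((c = 0 ∧ mat g * mat g = -1) ∨ (c ≠ 0 ∧ HasType g c))

theorem exists_code (h2 : (2 : F) ≠ 0) (hm : 0 < m) {x : Cfsg.PSp m F} (hx : x * x = 1) (hx1 : x ≠ 1) :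
    ∃ c ≤ m / 2, HasCode x c := by
  obtain ⟨g, rfl⟩ := QuotientGroup.mk_surjective x
  rw [← QuotientGroup.mk_mul, QuotientGroup.eq_one_iff, CfsgLib.Symp.mem_center_iff hm, coe_mul'] at hx
  rw [ne_eq, QuotientGroup.eq_one_iff, CfsgLib.Symp.mem_center_iff hm, not_or] at hx1
  rcases hx with hx | hx
  swap
  · exact ⟨0, Nat.zero_le _, g, rfl, Or.inl ⟨rfl, hx⟩⟩
  obtain ⟨k, hkm, hk⟩ := exists_hasType h2 hx
  have hk0 : k ≠ 0 := fun h => hx1.1 (eq_one_of_hasType_zero (h ▸ hk))
  let z : Sp := ⟨-1, mem_of_cols fun i j => by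
    rw [neg_mulVec, neg_mulVec, one_mulVec, one_mulVec, ← neg_one_smul F (Pi.single i 1 : V),
      ← neg_one_smul F (Pi.single j 1 : V), form_smul_left, form_smul_right]
    ring⟩
  have hz : mat (z * g) = -mat g := by rw [coe_mul', show mat z = -1 from rfl, neg_one_mul]
  by_cases hle : k ≤ m / 2
  · exact ⟨k, hle, g, rfl, Or.inr ⟨hk0, hk⟩⟩
  have hkm' : k ≠ m := fun h => by
    have h0 : HasType (z * g) 0 := by
      have := hasType_neg hz hk
      rwa [h, Nat.sub_self] at this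
    have h1 := eq_one_of_hasType_zero h0
    rw [hz, neg_eq_iff_eq_neg] at h1
    exact hx1.2 h1
  refine ⟨m - k, by omega, z * g, ?_, Or.inr ⟨by omega, hasType_neg hz hk⟩⟩
  rw [QuotientGroup.eq, _root_.mul_inv_rev, mul_assoc]
  have hzc : z⁻¹ ∈ Subgroup.center Sp := (Subgroup.center Sp).inv_mem
    ((CfsgLib.Symp.mem_center_iff hm z).mpr (Or.inr rfl))
  rw [← Subgroup.mem_center_iff.mp hzc g, inv_mul_cancel_left]
  exact hzc

theorem isConj_of_code [Finite F] (h2 : (2 : F) ≠ 0) {x y : Cfsg.PSp m F} {c : ℕ} (hx : HasCode x c)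
    (hy : HasCode y c) : IsConj x y := by
  obtain ⟨g, rfl, hg⟩ := hx
  obtain ⟨g', rfl, hg'⟩ := hy
  refine (QuotientGroup.mk' (Subgroup.center Sp)).map_isConj ?_
  rcases hg with ⟨hc, hg⟩ | ⟨hc, hg⟩ <;> rcases hg' with ⟨hc', hg'⟩ | ⟨hc', hg'⟩
  · exact isConj_of_rot h2 hg hg'
  · exact absurd hc hc'
  · exact absurd hc' hc
  · exact isConj_of_hasType hg hg'

end CfsgLib.InvClass
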